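import Cfsg.Agent.J1C.InvX

set_option autoImplicit false
set_option Elab.async false
set_option maxRecDepth 100000
set_option linter.all false

namespace Cfsg.Agent.J1C
open Cfsg.Agent.CGT

open Cfsg.Agent.Inv

noncomputable def cS : Srch := ⟨9, x_ts, chainBase [] c2_ls, [4], [4], []⟩
noncomputable def cR2_0 : ℕ := 0x4000000000020000000000000000010000000000000000010000000
noncomputable def cR0_0 : ℕ := 0x1000000000000000010000000001000000000000004004010000000000000000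
theorem c_aux : cS.auxB [0, 2, 4, 6, 8] c2_ls [] [0, 3, 0] = true := by decide +kernel
theorem c_r2_0 : cS.run (.cons [0] (.leaf 1) (.cons [1] (.leaf 1) (.cons [0, 0] (.leaf 1) (.cons [1, 1] (.leaf 1) .nil)))) (⟨c2_l2.b, c2_l2.S, [], cR2_0, 0⟩ :: []) [0] Pd.nil 0 = true := by decide +kernel
theorem c_f2 : freeB cS x_ns [210, 2] c2_l2 cR2_0 [] [] 0x1 1 = true := by decide +kernel
theorem c_r0_0 : cS.run (.cons [8, 2] .nil (.cons [8, 0] .nil (.cons [7, 3] .nil (.cons [6, 0, 2] .nil (.cons [7, 8, 6, 0] .nil (.cons [7, 7, 0, 3] .nil .nil)))))) (⟨c2_l0.b, c2_l0.S, [], cR0_0, 0⟩ :: [c2_l1, c2_l2]) [0, 3, 0] Pd.nil 0 = true := by decide +kernel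
theorem c_f0 : freeB cS x_ns [] c2_l0 cR0_0 [[0], [2], [4]] [2, 1, 0, 1, 1, 0, 1, 1, 0, 1] 0x4083335ed3d476aa9c449d4481b246f5e38e36e001ed1c10ae688d2b4eda18c83c 120 = true := by decide +kernel
theorem c_cb {G : Type*} [Group G] {φ : G →* Equiv.Perm ℕ} {γ : ℕ → G}
    (C : Cert φ γ 9 x_ns x_ts [0, 2, 4, 6, 8] c2_ls) : CB φ (ev (ext γ) [4]) [] (120 * (1 * (1))) :=
  haveI := C.fin
  have X := C.exact
  have A := Srch.auxB_sound (S := cS) C.M (K := ⊤) le_top rfl c_aux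
  (CB.free (S := cS) C.M C.base rfl rfl X (Srch.found_of_run (S := cS) C.M C.base (by decide +kernel) X A c_r0_0) c_f0
    (CB.forced (S := cS) A.2 (CB.free (S := cS) C.M C.base rfl rfl X.2.2 (Srch.found_of_run (S := cS) C.M C.base (by decide +kernel) X.2.2 A.2.2 c_r2_0) c_f2
    (CB.base X.2.2.2))))
theorem cent_cert {G : Type*} [Group G] {φ : G →* Equiv.Perm ℕ} {γ : ℕ → G}
    (C : Cert φ γ 9 x_ns x_ts [0, 2, 4, 6, 8] c2_ls) :
    orderOf (ev (ext γ) [4]) = 2 ∧ ∃ δ : ℕ → Subgroup.centralizer {ev (ext γ) [4]}, (∀ j, (δ j : G) = tk γ 3 j) ∧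
      Cert (φ.comp (Subgroup.subtype _)) δ 9 y_ns y_ts [0, 2, 4] cc_ls :=
  ⟨ord2B_sound C.M C.base (b := 2) (by decide +kernel),
    Inv.cert_cent C.M C.base rfl rfl (by decide +kernel) (c_cb C) cc_sound (by decide +kernel)⟩

end Cfsg.Agent.J1C
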