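import Cfsg.Agent.CGT.Act

set_option autoImplicit false
set_option Elab.async false
set_option maxRecDepth 100000
set_option linter.all false

namespace Cfsg.Agent.J1C
open Cfsg.Agent.CGT

noncomputable def qRR : List (List ℕ) := [[0, 0], [4, 4], [3, 4, 2, 4], [2, 2, 2, 2, 2], [2, 0, 2, 0, 2, 0, 4]]

end Cfsg.Agent.J1C
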