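import Cfsg.Agent.Mult.Slices
import Cfsg.Agent.J1C.Tabs2

set_option autoImplicit false
set_option Elab.async false
set_option maxRecDepth 100000
set_option linter.all false

namespace Cfsg.Agent.J1C
open Cfsg.Agent.CGT

open Cfsg.Agent.Mult

noncomputable def u2_D : PC := ⟨2, 3, 2, 15,
  [[0, 4, 0x10], [0, 0, 0x10], [0, 0, 0]],
  [0, 0, 0],
  [(3, 1, 1), (3, 4, 0x15), (3, 0x10, 5), (4, 1, 0x14), (4, 4, 1)], 7, 0x2000001⟩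
noncomputable def u2_ds : List (List ℕ) := [[4, 8, 4, 6, 0, 6, 8, 2, 4, 8, 6], [0, 6, 2, 0, 8, 2, 0, 6, 8, 2], [2, 0, 8, 6, 0, 8, 0, 6, 2, 8], [8, 4, 6, 8, 0, 8, 4, 6], [8, 0, 2, 8, 6, 4, 8, 2, 4]]
noncomputable def u2_c : Mult.Cert := ⟨11, 13, [[], [], []],
  [],
  [[0x17, 0xc, 8], [0, 0x15, 0x2d], [0, 0, 0x2e]]⟩

end Cfsg.Agent.J1C
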