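import Cfsg.Agent.Mult.Slices
import Cfsg.Agent.J1C.Mul2D

set_option autoImplicit false
set_option Elab.async false
set_option maxRecDepth 100000
set_option linter.all false

namespace Cfsg.Agent.J1C
open Cfsg.Agent.CGT

open Cfsg.Agent.Mult

set_option Elab.async false
theorem u2_all : allB u2_D u2_c [.fus 3 [2, 2] [], .fus 3 [1, 1] [], .fus 3 [1, 0] [0, 1], .fus 3 [2, 0] [0, 2], .fus 4 [4, 4] [], .fus 4 [3, 3] []] 9 n_ts u2_ds [1, 98, 78, 0] [(49, [0x10]), (26, [0x11]), (0, [4])] = true := by decide +kernel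

end Cfsg.Agent.J1C
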